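import Mathlib
import Cfsg.Prelude.Def_OddOrderLocal

set_option autoImplicit false

/-!
helper54: interface for S1352 (Bender–Glauberman 15.1-type statement: for a cyclic Hall
`κ(M)`-subgroup `K` of `M` there is a complement `U` of `K M_σ` in `M` normalized by `K`).

Route (avoids the `τ₃` "hard core"): take a complement `E ⊇ K` of `M_σ` in `M`; everything reduces
to `K ⊓ E' = ⊥`.  If `r ∣ |K ⊓ E'|`, let `R0 ≤ K ⊓ E'` have order `r`; then `R0 ⊴ E` (`Norm`),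
`C_{M_σ}(R0) ≠ 1` (`CNe`), some `y ∈ E` of prime power order `q^(k+1)` does not centralize `R0`
(`YEx`, transfer), `q ∉ κ(M)` (`ConjK`), `τ₂(M) = ∅` (`NoTau2`), `C_{M_σ}(z) = 1` for
`z = y^(q^k)` (`CQ1`), `z` centralizes `R0` (`Frob`), and a maximal subgroup `L` with
`σ(M) ∩ σ(L) = ∅`, `L ⊇ C_{M_σ}(R0) ⟨y⟩ R0` and `r ∈ σ(L)` or `q ∈ σ(L)` (`HEx`, `M2Ex`, `XCop`)
gives a contradiction in each of the three cases for `q` relative to `L` (`QA`, `QC`, and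
`BG139R.cent_pow`).  All pieces are independent of each other.
-/

namespace Cfsg.Agent.Lib.Helper54.S52Stmt

universe u

/-- UEX (pure group theory): a Hall subgroup `K` of `E` with `K ⊓ E' = ⊥` has a normal
complement in `E`. -/
def UEx : Prop :=
  ∀ {G : Type u} [Group G] [Finite G] (E K : Subgroup G), K ≤ E →
    (Nat.card K).Coprime (K.relIndex E) → K ⊓ ⁅E, E⁆ = ⊥ →
    ∃ U : Subgroup G, U ≤ E ∧ U ⊓ K = ⊥ ∧ E ≤ Subgroup.normalizer (U : Set G) ∧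
      ∀ e ∈ E, ∃ u ∈ U, ∃ k ∈ K, e = u * k

/-- NORM: a subgroup of order `r` of `E'` is normal in `E` when `M` has `r`-rank `≤ 1`
(`E'` is nilpotent by S1415, its Sylow `r`-subgroup is cyclic). -/
def Norm : Prop :=
  ∀ {G : Type u} [Group G] [Finite G], Cfsg.IsMinSimpleOddOrder G →
  ∀ (M E R0 : Subgroup G) (r : ℕ), IsCoatom M → Cfsg.IsComplIn E (Cfsg.sigmaCore M) M →
    r.Prime → Cfsg.PRankLE r 1 M → Nat.card R0 = r → R0 ≤ ⁅E, E⁆ →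
    E ≤ Subgroup.normalizer (R0 : Set G)

/-- YEX (pure group theory, transfer): if `R0 ≤ E'` has prime order `r`, is normal in `E`, and
the Sylow `r`-subgroups of `E` are cyclic, then some element of `E` of prime power order does not
centralize `R0`. -/
def YEx : Prop :=
  ∀ {G : Type u} [Group G] [Finite G] (E R0 : Subgroup G) (r : ℕ), r.Prime →
    Nat.card R0 = r → R0 ≤ ⁅E, E⁆ → E ≤ Subgroup.normalizer (R0 : Set G) →
    (∀ P : Sylow r E, IsCyclic P) →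
    ∃ y ∈ E, ∃ (q k : ℕ), q.Prime ∧ orderOf y = q ^ (k + 1) ∧ ¬ ∀ u ∈ R0, y * u = u * y

/-- CONJK (pure group theory, Sylow): if `K ≤ E` is abelian, `q ∤ |E : K|`, `R0 ≤ K` is normal in
`E`, then every `q`-element of `E` centralizes `R0` (it is conjugate into `K`). -/
def ConjK : Prop :=
  ∀ {G : Type u} [Group G] [Finite G] (E K R0 : Subgroup G) (q k : ℕ) (y : G), q.Prime →
    K ≤ E → (∀ a ∈ K, ∀ b ∈ K, a * b = b * a) → ¬ q ∣ K.relIndex E → R0 ≤ K →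
    E ≤ Subgroup.normalizer (R0 : Set G) → y ∈ E → orderOf y = q ^ k →
    ∀ u ∈ R0, y * u = u * y

/-- CNE: for `r ∈ κ(M)` and `R0 ≤ M` of order `r`, `C_{M_σ}(R0) ≠ 1` (definition of `κ` and
uniqueness of the subgroup of order `r` in a cyclic group). -/
def CNe : Prop :=
  ∀ {G : Type u} [Group G] [Finite G] (M R0 : Subgroup G) (r : ℕ), r ∈ Cfsg.kappa M →
    R0 ≤ M → Nat.card R0 = r → Cfsg.sigmaCore M ⊓ Subgroup.centralizer (R0 : Set G) ≠ ⊥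

/-- NOT2: if `R0 ⊴ E` has prime order `r ∉ σ(M)`, `M` has `r`-rank `≤ 1` and `C_{M_σ}(R0) ≠ 1`,
then `τ₂(M) = ∅` (S1409 for `N(R0) ≰ M`, `Helper22.BG12CC.exists_elemAb_sq_le_compl`,
S1417 fifth conjunct). -/
def NoTau2 : Prop :=
  ∀ {G : Type u} [Group G] [Finite G], Cfsg.IsMinSimpleOddOrder G →
  ∀ (M E R0 : Subgroup G) (r p : ℕ), IsCoatom M → Cfsg.IsComplIn E (Cfsg.sigmaCore M) M →
    r.Prime → r ∉ Cfsg.sigma M → Cfsg.PRankLE r 1 M → R0 ≤ E → Nat.card R0 = r →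
    E ≤ Subgroup.normalizer (R0 : Set G) →
    Cfsg.sigmaCore M ⊓ Subgroup.centralizer (R0 : Set G) ≠ ⊥ → p ∉ Cfsg.tau2 M

/-- CQ1: if `q ∉ σ(M) ∪ κ(M)`, `M` has `q`-rank `≤ 1` and `y ∈ M` has order `q^(k+1)`, then
`C_{M_σ}(y^(q^k)) = 1` (S1429; the Sylow `q`-subgroup is cyclic). -/
def CQ1 : Prop :=
  ∀ {G : Type u} [Group G] [Finite G], Cfsg.IsMinSimpleOddOrder G →
  ∀ (M : Subgroup G) (q k : ℕ) (y : G), IsCoatom M → q.Prime → q ∉ Cfsg.sigma M →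
    q ∉ Cfsg.kappa M → Cfsg.PRankLE q 1 M → y ∈ M → orderOf y = q ^ (k + 1) →
    ∀ n ∈ Cfsg.sigmaCore M, y ^ q ^ k * n = n * y ^ q ^ k → n = 1

/-- FROB: if `z ∈ E` of prime order `q` acts fixed-point-freely on `M_σ`, it centralizes the normal
subgroup `R0` of `E` of prime order `r` (else `Helper63.S28FR.main` gives `M_σ ≤ C(R0)`, so
`M ≤ N(R0)`, against S1409). -/
def Frob : Prop :=
  ∀ {G : Type u} [Group G] [Finite G], Cfsg.IsMinSimpleOddOrder G →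
  ∀ (M E R0 : Subgroup G) (r q : ℕ) (z : G), IsCoatom M →
    Cfsg.IsComplIn E (Cfsg.sigmaCore M) M →
    r.Prime → r ∉ Cfsg.sigma M → Cfsg.PRankLE r 1 M → R0 ≤ E → Nat.card R0 = r →
    E ≤ Subgroup.normalizer (R0 : Set G) →
    q.Prime → q ∉ Cfsg.sigma M → z ∈ E → orderOf z = q →
    (∀ n ∈ Cfsg.sigmaCore M, z * n = n * z → n = 1) →
    ∀ u ∈ R0, z * u = u * z

/-- HEX: a maximal subgroup `H ⊇ N(R0)` with `σ(M) ∩ σ(H) = ∅` (S1378 and S1409). -/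
def HEx : Prop :=
  ∀ {G : Type u} [Group G] [Finite G], Cfsg.IsMinSimpleOddOrder G →
  ∀ (M R0 : Subgroup G) (r : ℕ), IsCoatom M → r.Prime → r ∉ Cfsg.sigma M →
    Cfsg.PRankLE r 1 M → Nat.card R0 = r →
    ∃ H : Subgroup G, IsCoatom H ∧ Subgroup.normalizer (R0 : Set G) ≤ H ∧
      ∀ p, p ∈ Cfsg.sigma M → p ∉ Cfsg.sigma H

/-- M2EX: if `N(R0) ≤ H`, `r ∉ σ(H)` and `X ≤ H` is a `σ(H)'`-subgroup containing `R0`, then some
maximal subgroup `L ⊇ X` has `r ∈ σ(L)` (S1409: `r ∈ τ₂(H)`; complement `F ⊇ X`, `A ≤ F` of order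
`r²`, `R0 ≤ A`, `L ⊇ N(A) ⊇ F` by S1418; `r ∉ σ(L)` would give `N(A) ≰ L` by S1418). -/
def M2Ex : Prop :=
  ∀ {G : Type u} [Group G] [Finite G], Cfsg.IsMinSimpleOddOrder G →
  ∀ (H R0 X : Subgroup G) (r : ℕ), IsCoatom H → r.Prime → r ∉ Cfsg.sigma H →
    Nat.card R0 = r → Subgroup.normalizer (R0 : Set G) ≤ H → R0 ≤ X → X ≤ H →
    (Nat.card X).Coprime (Nat.card (Cfsg.sigmaCore H)) →
    ∃ L : Subgroup G, IsCoatom L ∧ X ≤ L ∧ r ∈ Cfsg.sigma L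

/-- XCOP (pure group theory): order of `C R0 ⟨y⟩`. -/
def XCop : Prop :=
  ∀ {G : Type u} [Group G] [Finite G] (C R0 : Subgroup G) (y : G),
    (∀ c ∈ C, ∀ u ∈ R0, c * u = u * c) → y ∈ Subgroup.normalizer (C : Set G) →
    y ∈ Subgroup.normalizer (R0 : Set G) →
    Nat.card ↥(C ⊔ R0 ⊔ Subgroup.zpowers y) ∣ Nat.card C * Nat.card R0 * orderOf y

/-- QA: if `σ(M) ∩ σ(L) = ∅`, `q ∈ σ(L)`, `z ∈ L` of order `q` normalizes `C ≤ M_σ ⊓ L`, then `z`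
centralizes `C` (`[c, z] ∈ C ⊓ L_σ = 1`). -/
def QA : Prop :=
  ∀ {G : Type u} [Group G] [Finite G], Cfsg.IsMinSimpleOddOrder G →
  ∀ (M L C : Subgroup G) (q : ℕ) (z : G), IsCoatom M → IsCoatom L →
    (∀ p, p ∈ Cfsg.sigma M → p ∉ Cfsg.sigma L) → q ∈ Cfsg.sigma L →
    C ≤ Cfsg.sigmaCore M → C ≤ L → z ∈ L → orderOf z = q →
    z ∈ Subgroup.normalizer (C : Set G) →
    ∀ c ∈ C, z * c = c * z

/-- QC: the same with `q ∈ τ₂(L)`, `q ∉ σ(M)` (complement `F ⊇ C ⟨z⟩` of `L_σ`, `A ⊴ F` of order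
`q²` containing `z` by S1418, `[c, z] ∈ C ⊓ A = 1`). -/
def QC : Prop :=
  ∀ {G : Type u} [Group G] [Finite G], Cfsg.IsMinSimpleOddOrder G →
  ∀ (M L C : Subgroup G) (q : ℕ) (z : G), IsCoatom M → IsCoatom L →
    (∀ p, p ∈ Cfsg.sigma M → p ∉ Cfsg.sigma L) → q ∈ Cfsg.tau2 L → q ∉ Cfsg.sigma M →
    C ≤ Cfsg.sigmaCore M → C ≤ L → z ∈ L → orderOf z = q →
    z ∈ Subgroup.normalizer (C : Set G) →
    ∀ c ∈ C, z * c = c * z

end Cfsg.Agent.Lib.Helper54.S52Stmt
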