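import Mathlib
import Cfsg.Prelude.Def_Transfer
import Cfsg.Prelude.Def_OddOrderLocal
import Cfsg.Prelude.Def_CaseTheorems
import Cfsg.Prelude.Def_OddOrder

set_option autoImplicit false

/-
helper54: Bender–Glauberman Theorem 12.6 (statement S1418), conditional on the conclusions of
Theorems 12.4(a) (S1416) and 12.5 (S1417), which enter as the hypotheses `h16`, `h17`
(exact shapes of the frozen statements).
-/

namespace Cfsg.Agent.Lib.Helper54.BG126

open Cfsg

variable {G : Type*} [Group G]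

/-- The conclusion of S1416 (B&G 12.4) for `M`, `p`, `A`. -/
def C1416 (M : Subgroup G) (p : ℕ) (A : Subgroup G) : Prop :=
  Subgroup.centralizer (A : Set G) ≤ M ∧
    ((∀ A₀ : Subgroup G, A₀ ≤ A → Nat.card A₀ = p →
        ¬ (Subgroup.normalizer (A₀ : Set G) ≤ M ∧ ∀ L : Subgroup G, IsCoatom L → Subgroup.normalizer (A₀ : Set G) ≤ L → L = M)) →
      p ∈ Cfsg.sigma M ∧ Cfsg.alphaCore M = ⊥ ∧ Group.IsNilpotent (Cfsg.sigmaCore M))

/-- The conclusion of S1417 (B&G 12.5) for `M`, `p`, `A`. -/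
def C1417 (M : Subgroup G) (p : ℕ) [Fact p.Prime] (A : Subgroup G) : Prop :=
  Group.IsNilpotent (Cfsg.sigmaCore M) ∧
    (∀ P : Sylow p M, IsMulCommutative (P : Subgroup M) ∧
      (A ≤ (P : Subgroup M).map M.subtype →
        (∀ x ∈ (P : Subgroup M).map M.subtype, x ^ p = 1 ↔ x ∈ A) ∧
        ¬ Subgroup.normalizer ((((P : Subgroup M).map M.subtype : Subgroup G)) : Set G) ≤ M)) ∧
    M ≤ Subgroup.normalizer ((Cfsg.sigmaCore M ⊔ A : Subgroup G) : Set G) ∧
    Cfsg.sigmaCore M ⊓ Subgroup.centralizer (A : Set G) = ⊥ ∧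
    (∀ Mstar : Subgroup G, IsCoatom Mstar → Mstar ≠ M → A ≤ Mstar → Cfsg.sigmaCore M ⊓ Mstar = ⊥) ∧
    ∃ A₁ : Subgroup G, A₁ ≤ A ∧ Nat.card A₁ = p ∧ Cfsg.sigmaCore M ⊓ Subgroup.centralizer (A₁ : Set G) = ⊥

/-- In a minimal simple group of odd order, nontrivial subgroups have proper centralizers. -/
theorem centralizer_ne_top (hG : Cfsg.IsMinSimpleOddOrder G) (X : Subgroup G) (hX : X ≠ ⊥) :
    Subgroup.centralizer (X : Set G) ≠ ⊤ := by
  intro h
  have hS : IsSimpleGroup G := hG.2.1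
  have hXc : X ≤ Subgroup.center G := by
    intro b hb
    rw [Subgroup.mem_center_iff]
    intro g
    have : g ∈ Subgroup.centralizer (X : Set G) := h ▸ Subgroup.mem_top g
    exact (Subgroup.mem_centralizer_iff.mp this b hb).symm
  rcases (inferInstance : (Subgroup.center G).Normal).eq_bot_or_eq_top with h0 | h0
  · rw [h0, le_bot_iff] at hXc
    exact hX hXc
  · apply hG.2.2.1
    refine ⟨⟨fun a b => ?_⟩⟩
    have : a ∈ Subgroup.center G := h0 ▸ Subgroup.mem_top a
    exact (Subgroup.mem_center_iff.mp this b).symm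

/-- `M_σ` is normalized by `M`. -/
theorem le_normalizer_sigmaCore (M : Subgroup G) :
    M ≤ Subgroup.normalizer ((Cfsg.sigmaCore M : Subgroup G) : Set G) := by
  intro m hm
  rw [Subgroup.mem_normalizer_iff]
  intro h
  unfold Cfsg.sigmaCore
  constructor
  · rintro ⟨x, hx, rfl⟩
    refine ⟨⟨m, hm⟩ * x * ⟨m, hm⟩⁻¹, ?_, by simp⟩
    exact (Cfsg.piCore_normal (Cfsg.sigma M) M).conj_mem x hx ⟨m, hm⟩
  · rintro ⟨x, hx, hxe⟩
    have hhM : h ∈ M := by
      have : m * h * m⁻¹ ∈ M := by rw [← hxe]; exact x.2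
      have h2 := M.mul_mem (M.mul_mem (M.inv_mem hm) this) hm
      have e : m⁻¹ * (m * h * m⁻¹) * m = h := by group
      rwa [e] at h2
    refine ⟨⟨h, hhM⟩, ?_, rfl⟩
    have h3 := (Cfsg.piCore_normal (Cfsg.sigma M) M).conj_mem x hx ⟨m, hm⟩⁻¹
    have e : (⟨m, hm⟩ : M)⁻¹ * x * (⟨m, hm⟩ : M)⁻¹⁻¹ = ⟨h, hhM⟩ := by
      apply Subtype.ext
      simp only [Subgroup.coe_mul, Subgroup.coe_inv, inv_inv]
      have hx' : (x : G) = m * h * m⁻¹ := hxe
      rw [hx']; group
    rwa [e] at h3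

/-- A subgroup of `M` of `p`-power order lies in (the image of) a Sylow `p`-subgroup of `M`. -/
theorem exists_sylow_ge [Finite G] {p : ℕ} [Fact p.Prime] {M X : Subgroup G} (hXM : X ≤ M)
    (hX : IsPGroup p X) : ∃ P : Sylow p M, X ≤ (P : Subgroup M).map M.subtype := by
  have h1 : IsPGroup p (X.subgroupOf M) := by
    have : IsPGroup p (X.subgroupOf M) :=
      hX.comap_of_injective M.subtype (Subgroup.subtype_injective M)
    exact this
  obtain ⟨P, hP⟩ := h1.exists_le_sylow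
  refine ⟨P, ?_⟩
  intro x hx
  exact ⟨⟨x, hXM hx⟩, hP (by simpa [Subgroup.mem_subgroupOf] using hx), rfl⟩

/-- B&G Theorem 12.6 (the statement S1418), from 12.4(a) and 12.5. -/
theorem main [Finite G]
    (M : Subgroup G) (hM : IsCoatom M) (E : Subgroup G) (hE : Cfsg.IsComplIn E (Cfsg.sigmaCore M) M)
    (p : ℕ) [Fact p.Prime] (A : Subgroup G) (hA : (A ≤ E ∧ Cfsg.IsElementaryAbelian p A ∧ Nat.card A = p ^ 2))
    (hcenter : ∀ X : Subgroup G, X ≠ ⊥ → Subgroup.centralizer (X : Set G) ≠ ⊤)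
    (h16 : C1416 M p A) (h17 : C1417 M p A) :
    (E ≤ Subgroup.normalizer (A : Set G) ∧ ∀ X : Subgroup G, X ≤ E → Nat.card X = p → X ≤ A) ∧
      (Subgroup.centralizer (A : Set G) ≤ M ⊓ Subgroup.normalizer (A : Set G) ∧ M ⊓ Subgroup.normalizer (A : Set G) = E ∧
        ¬ Subgroup.normalizer (A : Set G) ≤ M) ∧
      ∀ X : Subgroup G, X ≤ A → Nat.card X = p → Cfsg.sigmaCore M ⊓ Subgroup.centralizer (X : Set G) ≠ ⊥ → (Subgroup.centralizer (X : Set G) ≤ M ∧ ∀ L : Subgroup G, IsCoatom L → Subgroup.centralizer (X : Set G) ≤ L → L = M) := by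
  obtain ⟨hAE, hAel, hAc⟩ := hA
  obtain ⟨hEM, hKM, hEK, hEprod⟩ := hE
  obtain ⟨hCA, -⟩ := h16
  obtain ⟨-, hb, hc, hd, he, -⟩ := h17
  have hp : p.Prime := Fact.out
  have hAM : A ≤ M := hAE.trans hEM
  have hApg : IsPGroup p A := IsPGroup.of_card hAc
  have hKn := le_normalizer_sigmaCore M
  -- elements of `K ⊔ A`
  have hsup : ∀ x ∈ Cfsg.sigmaCore M ⊔ A, ∃ k ∈ Cfsg.sigmaCore M, ∃ a ∈ A, x = k * a := by
    intro x hx
    have h1 : x ∈ ((Cfsg.sigmaCore M ⊔ A : Subgroup G) : Set G) := hx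
    rw [Subgroup.coe_mul_of_right_le_normalizer_left _ _ (hAM.trans hKn)] at h1
    obtain ⟨k, hk, a, ha, rfl⟩ := Set.mem_mul.mp h1
    exact ⟨k, hk, a, ha, rfl⟩
  -- (a1) E normalizes A
  have hconj : ∀ e ∈ E, ∀ a ∈ A, e * a * e⁻¹ ∈ A := by
    intro e he a ha
    have h1 : e * a * e⁻¹ ∈ Cfsg.sigmaCore M ⊔ A := by
      have := hc (hEM he)
      rw [Subgroup.mem_normalizer_iff] at this
      exact (this a).mp (Subgroup.mem_sup_right ha)
    obtain ⟨k, hk, a', ha', h2⟩ := hsup _ h1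
    have h3 : k = e * a * e⁻¹ * a'⁻¹ := by rw [h2]; group
    have h4 : k ∈ E := by
      rw [h3]
      exact E.mul_mem (E.mul_mem (E.mul_mem he (hAE ha)) (E.inv_mem he)) (E.inv_mem (hAE ha'))
    have h5 : k ∈ E ⊓ Cfsg.sigmaCore M := ⟨h4, hk⟩
    rw [hEK, Subgroup.mem_bot] at h5
    rw [h2, h5, one_mul]; exact ha'
  have hEN : E ≤ Subgroup.normalizer (A : Set G) := by
    intro e he
    rw [Subgroup.mem_normalizer_iff]
    intro h
    refine ⟨fun hh => hconj e he h hh, fun hh => ?_⟩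
    have := hconj e⁻¹ (E.inv_mem he) _ hh
    have e1 : e⁻¹ * (e * h * e⁻¹) * e⁻¹⁻¹ = h := by group
    rwa [e1] at this
  -- (b2) N_M(A) = E
  have hNK : ∀ k ∈ Cfsg.sigmaCore M, k ∈ Subgroup.normalizer (A : Set G) → k = 1 := by
    intro k hk hkN
    have h1 : k ∈ Cfsg.sigmaCore M ⊓ Subgroup.centralizer (A : Set G) := by
      refine ⟨hk, ?_⟩
      show k ∈ Subgroup.centralizer (A : Set G)
      rw [Subgroup.mem_centralizer_iff]
      intro a ha
      -- [k, a] ∈ K ∩ A = 1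
      have ha' : a ∈ A := ha
      have h2 : k * a * k⁻¹ ∈ A := by
        rw [Subgroup.mem_normalizer_iff] at hkN
        exact (hkN a).mp ha'
      have h3 : k * a * k⁻¹ * a⁻¹ ∈ A := A.mul_mem h2 (A.inv_mem ha')
      have h4 : k * a * k⁻¹ * a⁻¹ ∈ Cfsg.sigmaCore M := by
        have h5 : a * k⁻¹ * a⁻¹ ∈ Cfsg.sigmaCore M := by
          have := hKn (hAM ha')
          rw [Subgroup.mem_normalizer_iff] at this
          exact (this k⁻¹).mp ((Cfsg.sigmaCore M).inv_mem hk)
        have e1 : k * a * k⁻¹ * a⁻¹ = k * (a * k⁻¹ * a⁻¹) := by group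
        rw [e1]; exact (Cfsg.sigmaCore M).mul_mem hk h5
      have h6 : k * a * k⁻¹ * a⁻¹ ∈ E ⊓ Cfsg.sigmaCore M := ⟨hAE h3, h4⟩
      rw [hEK, Subgroup.mem_bot] at h6
      have e2 : a * k = (k * a * k⁻¹ * a⁻¹)⁻¹ * (k * a) := by group
      rw [e2, h6]; simp
    rw [hd, Subgroup.mem_bot] at h1
    exact h1
  have hNM : M ⊓ Subgroup.normalizer (A : Set G) = E := by
    apply le_antisymm
    · rintro n ⟨hnM, hnN⟩
      obtain ⟨e, he, k, hk, rfl⟩ := hEprod n hnM
      have h1 : k ∈ Subgroup.normalizer (A : Set G) := by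
        have := (Subgroup.normalizer (A : Set G)).mul_mem
          ((Subgroup.normalizer (A : Set G)).inv_mem (hEN he)) hnN
        have e1 : e⁻¹ * (e * k) = k := by group
        rwa [e1] at this
      rw [hNK k hk h1, mul_one]; exact he
    · exact le_inf hEM hEN
  -- a Sylow p-subgroup of M over a p-subgroup containing A
  have hchar : ∀ P : Sylow p M, A ≤ (P : Subgroup M).map M.subtype →
      Subgroup.normalizer ((((P : Subgroup M).map M.subtype : Subgroup G)) : Set G) ≤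
        Subgroup.normalizer (A : Set G) := by
    intro P hAP g hg
    have hiff := (hb P).2 hAP |>.1
    rw [Subgroup.mem_normalizer_iff] at hg ⊢
    intro h
    constructor
    · intro hh
      have h1 : g * h * g⁻¹ ∈ (P : Subgroup M).map M.subtype := (hg h).mp (hAP hh)
      refine (hiff _ h1).mp ?_
      have h2 : h ^ p = 1 := hAel.2 h hh
      have e1 : (g * h * g⁻¹) ^ p = g * h ^ p * g⁻¹ := by
        rw [conj_pow]
      rw [e1, h2]; simp
    · intro hh
      have h1 : h ∈ (P : Subgroup M).map M.subtype := (hg h).mpr (hAP hh)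
      refine (hiff _ h1).mp ?_
      have h2 : (g * h * g⁻¹) ^ p = 1 := hAel.2 _ hh
      rw [conj_pow] at h2
      have e1 : h ^ p = g⁻¹ * (g * h ^ p * g⁻¹) * g := by group
      rw [e1, h2]; simp
  refine ⟨⟨hEN, ?_⟩, ⟨le_inf hCA (Subgroup.centralizer_le_normalizer _), hNM, ?_⟩, ?_⟩
  · -- (a2) every subgroup of order p of E lies in A
    intro X hXE hXc
    have hXpg : IsPGroup p X := IsPGroup.of_card (n := 1) (by rw [hXc, pow_one])
    -- X ⊔ A is a p-group
    have hXA : IsPGroup p (X ⊔ A : Subgroup G) :=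
      hXpg.to_sup_of_normal_right' hApg (hXE.trans hEN)
    obtain ⟨P, hP⟩ := exists_sylow_ge (sup_le (hXE.trans hEM) hAM) hXA
    have hiff := ((hb P).2 (le_sup_right.trans hP)).1
    intro x hx
    refine (hiff x (hP (Subgroup.mem_sup_left hx))).mp ?_
    have : (⟨x, hx⟩ : X) ^ p = 1 := by
      rw [← hXc]; exact pow_card_eq_one'
    simpa using congrArg (fun y : X => (y : G)) this
  · -- (b3) N_G(A) ⊄ M
    obtain ⟨P, hP⟩ := exists_sylow_ge hAM hApg
    intro hN
    exact ((hb P).2 hP).2 ((hchar P hP).trans hN)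
  · -- (c)
    intro X hXA hXc hXK
    have hX1 : X ≠ ⊥ := by
      rintro rfl
      rw [Subgroup.card_bot] at hXc
      exact hp.one_lt.ne hXc
    have huniq : ∀ L : Subgroup G, IsCoatom L → Subgroup.centralizer (X : Set G) ≤ L → L = M := by
      intro L hL hXL
      by_contra hne
      have hAL : A ≤ L := by
        refine le_trans ?_ hXL
        intro a ha
        rw [Subgroup.mem_centralizer_iff]
        intro x hx
        have h2 := hAel.1.is_comm.comm (⟨x, hXA hx⟩ : A) ⟨a, ha⟩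
        exact congrArg (fun y : A => (y : G)) h2
      have h1 := he L hL hne hAL
      apply hXK
      rw [eq_bot_iff, ← h1]
      exact inf_le_inf_left _ hXL
    obtain ⟨L, hL, hXL⟩ := (eq_top_or_exists_le_coatom (Subgroup.centralizer (X : Set G))).resolve_left
      (hcenter X hX1)
    have := huniq L hL hXL
    subst this
    exact ⟨hXL, huniq⟩

end Cfsg.Agent.Lib.Helper54.BG126
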