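import Mathlib
import Cfsg.Agent.Lib.Helper75.DCStmt
import Cfsg.Agent.S4717

/-!
# S4719, piece CB (second seat): bounded centralizers of the involutions of `E`.
-/

set_option autoImplicit false

namespace Cfsg.Agent.Lib.Helper54.DCCB

open Cfsg Cfsg.Agent.Lib.Helper75.DCStmt

universe u

theorem card_map_mk {X : Type u} [Group X] [Finite X] (Z : Subgroup X) [Z.Normal]
    (H : Subgroup X) (h : Z ≤ H) :
    Nat.card (H.map (QuotientGroup.mk' Z)) * Nat.card Z = Nat.card H := by
  have h1 : (H.map (QuotientGroup.mk' Z)).index = H.index :=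
    Subgroup.index_map_eq H (QuotientGroup.mk'_surjective Z)
      (by rw [QuotientGroup.ker_mk']; exact h)
  have h2 : Nat.card X = Nat.card (X ⧸ Z) * Nat.card Z :=
    Subgroup.card_eq_card_quotient_mul_card_subgroup Z
  have h3 := Subgroup.card_mul_index H
  have h4 := Subgroup.card_mul_index (H.map (QuotientGroup.mk' Z))
  rw [h1] at h4
  have h5 : H.index ≠ 0 := Subgroup.index_ne_zero_of_finite
  have h6 : Nat.card (H.map (QuotientGroup.mk' Z)) * Nat.card Z * H.index
      = Nat.card H * H.index := by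
    rw [h3, h2, ← h4]; ring
  exact Nat.eq_of_mul_eq_mul_right (Nat.pos_of_ne_zero h5) h6

theorem main (hDQ : DQ.{u}) : CB.{u} := by
  intro r a Nf hBd G _ _ M P hM hP hDC E hEP hEc hE2 hEcard x hxE hx1
  have : Fact (Nat.Prime 2) := ⟨Nat.prime_two⟩
  have hx2 : orderOf x = 2 := orderOf_eq_prime (by rw [pow_two]; exact hE2 x hxE) hx1
  have hxX : x ∈ Subgroup.centralizer ({x} : Set G) :=
    Subgroup.mem_centralizer_iff.mpr (fun h hh => by rw [Set.mem_singleton_iff.mp hh])
  have hDCX : DC M ↥(Subgroup.centralizer ({x} : Set G)) (r + 1) := by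
    intro B hB hne
    exact (Cfsg.Agent.S4717.result (G := G) 2 M hM (r + 1)).1 hDC x
      ⟨1, by rw [hx2, pow_one]⟩ B hB hne
  have hEX : E ≤ Subgroup.centralizer ({x} : Set G) := by
    intro e he
    rw [Subgroup.mem_centralizer_iff]
    intro h hh
    rw [Set.mem_singleton_iff.mp hh]
    exact setLike_mul_comm hxE he
  set X : Subgroup G := Subgroup.centralizer ({x} : Set G) with hXdef
  let x' : ↥X := ⟨x, hxX⟩
  have hx'2 : orderOf x' = 2 := by rw [← hx2]; exact Subgroup.orderOf_mk x hxX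
  let Z : Subgroup ↥X := Subgroup.zpowers x'
  have hZc : Z ≤ Subgroup.center ↥X := by
    show Subgroup.zpowers x' ≤ Subgroup.center ↥X
    rw [Subgroup.zpowers_le, Subgroup.mem_center_iff]
    intro g
    have := Subgroup.mem_centralizer_iff.mp g.2 x rfl
    exact Subtype.ext this.symm
  have hZn : Z.Normal := ⟨fun n hn g => by
    have h1 := Subgroup.mem_center_iff.mp (hZc hn) g
    rw [h1, mul_inv_cancel_right]; exact hn⟩
  have hZcard : Nat.card Z = 2 := by
    show Nat.card (Subgroup.zpowers x') = 2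
    rw [Nat.card_zpowers, hx'2]
  have hDCq : DC M (↥X ⧸ Z) r := hDQ ↥X M hM Z hZc hZcard r hDCX
  let E1 : Subgroup ↥X := E.subgroupOf X
  have hZE1 : Z ≤ E1 := by
    show Subgroup.zpowers x' ≤ E1
    rw [Subgroup.zpowers_le]
    exact Subgroup.mem_subgroupOf.mpr hxE
  let E' : Subgroup (↥X ⧸ Z) := E1.map (QuotientGroup.mk' Z)
  have hE1card : Nat.card E1 = 2 ^ (r + 2) := by
    rw [← hEcard]; exact Nat.card_congr (Subgroup.subgroupOfEquivOfLe hEX).toEquiv
  have hE'card : Nat.card E' = 2 ^ (r + 1) := by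
    have h1 := card_map_mk Z E1 hZE1
    rw [hZcard, hE1card, pow_succ 2 (r + 1)] at h1
    exact Nat.eq_of_mul_eq_mul_right (by norm_num) h1
  have hE'p : IsPGroup 2 E' := IsPGroup.of_card hE'card
  obtain ⟨P', hP'⟩ := hE'p.exists_le_sylow
  obtain ⟨a', ha'⟩ := (IsPGroup.iff_card (p := 2)).mp P'.2
  have hXcard : Nat.card ↥X = Nat.card (↥X ⧸ Z) * 2 := by
    rw [← hZcard]; exact Subgroup.card_eq_card_quotient_mul_card_subgroup Z
  have ha'lt : a' < a := by
    have h1 : 2 ^ a' ∣ Nat.card (↥X ⧸ Z) := by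
      rw [← ha']; exact Subgroup.card_subgroup_dvd_card _
    have h2 : 2 ^ (a' + 1) ∣ Nat.card G := by
      rw [pow_succ]
      exact dvd_trans (by rw [hXcard]; exact Nat.mul_dvd_mul_right h1 2)
        (Subgroup.card_subgroup_dvd_card X)
    have h3 : a' + 1 ≤ (Nat.card G).factorization 2 :=
      (Nat.prime_two.pow_dvd_iff_le_factorization Nat.card_pos.ne').mp h2
    have h4 : Nat.card P = 2 ^ (Nat.card G).factorization 2 := P.card_eq_multiplicity
    have h5 : a = (Nat.card G).factorization 2 :=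
      Nat.pow_right_injective (le_refl 2) (hP.symm.trans h4)
    omega
  have hQ : Nat.card (↥X ⧸ Z) ≤ Nf a' := by
    refine hBd a' (↥X ⧸ Z) M P' hM ha' hDCq ⟨E', hP', ?_, ?_, hE'card⟩
    · rw [isMulCommutative_iff]
      rintro ⟨_, ⟨e1, he1, rfl⟩⟩ ⟨_, ⟨e2, he2, rfl⟩⟩
      apply Subtype.ext
      show QuotientGroup.mk' Z e1 * QuotientGroup.mk' Z e2
        = QuotientGroup.mk' Z e2 * QuotientGroup.mk' Z e1
      rw [← map_mul, ← map_mul]
      congr 1
      apply Subtype.ext
      exact setLike_mul_comm (Subgroup.mem_subgroupOf.mp he1) (Subgroup.mem_subgroupOf.mp he2)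
    · rintro _ ⟨e1, he1, rfl⟩
      rw [← map_mul]
      have h1 : e1 * e1 = 1 := Subtype.ext (hE2 _ (Subgroup.mem_subgroupOf.mp he1))
      rw [h1, map_one]
  calc Nat.card ↥X = Nat.card (↥X ⧸ Z) * 2 := hXcard
    _ ≤ Nf a' * 2 := Nat.mul_le_mul_right 2 hQ
    _ = 2 * Nf a' := Nat.mul_comm _ _
    _ ≤ 2 * ∑ a' ∈ Finset.range a, Nf a' := by
      apply Nat.mul_le_mul_left
      exact Finset.single_le_sum (f := Nf) (fun i _ => Nat.zero_le _)
        (Finset.mem_range.mpr ha'lt)

end Cfsg.Agent.Lib.Helper54.DCCB
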